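import Cfsg.Agent.H505.RatB.Tits
import Cfsg.Agent.H681.IP.Row

/-!
# S4933, box s.Tits.2 (helper505)

The stabiliser of an edge of the generalized octagon (order `1024`) is not metabelian.
-/

set_option autoImplicit false
set_option maxRecDepth 100000
set_option exponentiation.threshold 5000

namespace Cfsg.Agent.H505.HT.Tits

open Cfsg Cfsg.Agent.H316.HT Cfsg.Agent.H505.RatB Cfsg.Agent.H505.RatB.Tits
open Cfsg.Agent.Lib.BitNet Cfsg.Agent.Lib.BitNetSimple Cfsg.Agent.H805.K4.Bit Cfsg.Agent.H805.K4.Tits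
open Cfsg.Agent.SporadicB.RuData Cfsg.Agent.SporadicB.RuOrder Cfsg.Agent.SporadicB.RuTitsData
open Cfsg.Agent.SporadicB.RuTits
open MulAction
open scoped commutatorElement

universe u

theorem card_stab : Nat.card (stabilizer T (bp X)) = 10240 := by
  have h1 := Subgroup.card_mul_index (stabilizer T (bp X))
  rw [index_stabilizer_of_transitive, card_Pt, card_T] at h1
  omega

theorem ncard_cls : {y : Pt X | cls X y = 1}.ncard = 10 := by
  have := Fintype.ofFinite (Pt X)
  classical
  have h1 := count (bp X) (bp X) 1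
  have h2 : (Finset.univ.filter fun y => ty X (bp X) y = 1 ∧ ty X (bp X) y = 1) =
      Finset.univ.filter fun y : Pt X => cls X y = 1 := by
    refine Finset.filter_congr fun y _ => ?_
    rw [ty_bp, and_self]
  rw [h2, ty_bp, cls_bp] at h1
  rw [← Set.ncard_coe_finset] at h1
  rw [Finset.coe_filter] at h1
  simp only [Finset.mem_univ, true_and] at h1
  rw [h1]
  decide

/-- the stabiliser of an edge -/
abbrev Y : Subgroup (stabilizer T (bp X)) := stabilizer (stabilizer T (bp X)) (rp X 1)

theorem orbit_eq : orbit (stabilizer T (bp X)) (rp X 1) = {y : Pt X | cls X y = 1} := by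
  ext y
  constructor
  · rintro ⟨g, rfl⟩
    show cls X (g.1 • rp X 1) = 1
    rw [cls_stab X g.2, cls_rp]
  · intro hy
    obtain ⟨g, h1, h2⟩ := exists_orb X y
    rw [show cls X y = 1 from hy] at h2
    exact ⟨⟨g, h1⟩, h2⟩

theorem card_Y : Nat.card Y = 1024 := by
  have h1 := Subgroup.card_mul_index Y
  rw [index_stabilizer, orbit_eq, ncard_cls, card_stab] at h1
  omega

/-- words for the elements of the stabiliser of the edge -/
def wx : List ℕ := [0, 2, 1, 3, 1, 3, 1, 3, 0, 2, 0, 2]
def wy : List ℕ := [1, 3]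
def wz : List ℕ := [0, 2, 0, 2, 1, 3, 0, 2, 0, 2, 0, 2]

theorem ev {w : List ℕ} {m n : ℕ} (hm : m < 4060) (hn : n < 4060) (h : Nat.beq (appF (net w) m) n = true) :
    pw w (⟨m, hm⟩ : Fin 4060) = ⟨n, hn⟩ := by
  apply Fin.ext
  rw [pw_apply, ← appF_eq]
  exact Nat.eq_of_beq_eq_true h

/-- the element of the stabiliser of the edge -/
noncomputable def el {w : List ℕ} (h1 : Nat.beq (appF (net w) 1968) 1968 = true)
    (h2 : Nat.beq (appF (net w) 189) 189 = true) : Y :=
  ⟨⟨⟨pw w, pw_mem w⟩, mem_stabilizer_iff.2 (Subtype.ext (ev (by norm_num) (by norm_num) h1))⟩,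
    mem_stabilizer_iff.2 (Subtype.ext (ev (m := 189) (n := 189) (by norm_num) (by norm_num) h2))⟩

theorem chkx : Nat.beq (appF (net wx) 1968) 1968 = true ∧ Nat.beq (appF (net wx) 189) 189 = true := by decide +kernel
theorem chky : Nat.beq (appF (net wy) 1968) 1968 = true ∧ Nat.beq (appF (net wy) 189) 189 = true := by decide +kernel
theorem chkz : Nat.beq (appF (net wz) 1968) 1968 = true ∧ Nat.beq (appF (net wz) 189) 189 = true := by decide +kernel

theorem comm_ev {Ω : Type u} {a b : Equiv.Perm Ω} {p q r : Ω} (h1 : b (a r) = p) (h2 : a (b r) = q) : ⁅a, b⁆ p = q := by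
  have e : ⁅a, b⁆ * (b * a) = a * b := by
    rw [commutatorElement_def]
    group
  have h3 := congrArg (fun g : Equiv.Perm Ω => g r) e
  simp only [Equiv.Perm.mul_apply] at h3
  rw [h1, h2] at h3
  exact h3

/-- the value of a commutator -/
theorem ce {a b : List ℕ} {p q r s t : ℕ} (hp : p < 4060) (hq : q < 4060) (hr : r < 4060) (hs : s < 4060)
    (ht : t < 4060) (h : (Nat.beq (appF (net a) r) s && Nat.beq (appF (net b) s) p && (Nat.beq (appF (net b) r) t &&
      Nat.beq (appF (net a) t) q)) = true) : ⁅pw a, pw b⁆ (⟨p, hp⟩ : Fin 4060) = ⟨q, hq⟩ := by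
  rw [Bool.and_eq_true, Bool.and_eq_true, Bool.and_eq_true] at h
  refine comm_ev (r := ⟨r, hr⟩) ?_ ?_
  · rw [ev hr hs h.1.1, ev hs hp h.1.2]
  · rw [ev hr ht h.2.1, ev ht hq h.2.2]

theorem ncomm : ¬ Commute ⁅pw wx, pw wy⁆ ⁅pw wz, pw wy⁆ := by
  intro h
  have h1 := congrArg (fun g : Equiv.Perm (Fin 4060) => g ⟨1, by norm_num⟩) h.eq
  simp only [Equiv.Perm.mul_apply] at h1
  rw [ce (p := 1) (q := 2766) (r := 537) (s := 1828) (t := 972) (by norm_num) (by norm_num) (by norm_num) (by norm_num)
      (by norm_num) (by decide +kernel),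
    ce (p := 2766) (q := 1462) (r := 2664) (s := 1134) (t := 3292) (by norm_num) (by norm_num) (by norm_num)
      (by norm_num) (by norm_num) (by decide +kernel),
    ce (p := 1) (q := 387) (r := 972) (s := 1828) (t := 3860) (by norm_num) (by norm_num) (by norm_num) (by norm_num)
      (by norm_num) (by decide +kernel),
    ce (p := 387) (q := 1261) (r := 2315) (s := 2501) (t := 1528) (by norm_num) (by norm_num) (by norm_num)
      (by norm_num) (by norm_num) (by decide +kernel)] at h1
  exact absurd (congrArg Fin.val h1) (by norm_num)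

/-- **Box s.Tits.2** -/
theorem row2_tits {S : Type u} [Group S] (h : Lie.IsoTits S) : Row 2 S := by
  obtain ⟨e⟩ := h
  obtain ⟨f⟩ := H707.RowTits.equiv
  let g : T ≃* S := (e.trans f).symm
  let x : Y := el chkx.1 chkx.2
  let y : Y := el chky.1 chky.2
  let z : Y := el chkz.1 chkz.2
  refine H681.IP.row_of_derived Nat.prime_two
    (g.toMonoidHom.comp ((stabilizer T (bp X)).subtype.comp Y.subtype))
    (fun a b hab => Subtype.val_injective (Subtype.val_injective (g.injective hab)))
    (IsPGroup.of_card (n := 10) (by rw [card_Y]; norm_num)) (MonoidHom.id Y) Function.surjective_id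
    (x := x) (y := y) (z := z) (t := y) fun hc => ncomm ?_
  have h1 := congrArg (fun a : Y => a.1.1.1) hc.eq
  exact h1

end Cfsg.Agent.H505.HT.Tits
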